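import Mathlib
import Cfsg.Prelude
import Cfsg.Agent.Lib.Helper68.Half.Defs

/-!
# HALF project (S3371): package [CENT]

Non-identity central elements of a `p`-group acting faithfully on an `F_q`-space (`p ≠ q`) with
all stabilizers of non-zero vectors of the same order have no non-zero fixed vector.
-/

set_option autoImplicit false

universe u v

namespace Cfsg.Agent.Lib.Helper86.Half

open Cfsg.Agent.Lib.Helper68.Half

theorem pkgCent_of (hS : PkgSplit.{u, v}) : PkgCent.{u, v} := by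
  intro q _ V _ _ _ G _ _ p _ ρ hG hpq hinj hEq
  intro z hz hz1 v₀ hv₀
  by_contra hv0
  obtain ⟨k, hk⟩ := hG z
  have hnq : ((p ^ k : ℕ) : ZMod q) ≠ 0 := by
    intro h
    rw [ZMod.natCast_eq_zero_iff] at h
    have h1 : q ∣ p := (Fact.out : q.Prime).dvd_of_dvd_pow h
    exact hpq ((Nat.prime_dvd_prime_iff_eq Fact.out Fact.out).1 h1).symm
  have hcomm : ∀ (i : ℕ) (g : G), z ^ i * g = g * z ^ i := by
    intro i g
    have h1 : z ^ i ∈ Subgroup.center G := Subgroup.pow_mem _ hz i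
    exact ((Subgroup.mem_center_iff.1 h1) g).symm
  let S : V →ₗ[ZMod q] V :=
    ∑ i ∈ Finset.range (p ^ k), ((ρ (z ^ i) : V ≃ₗ[ZMod q] V) : V →ₗ[ZMod q] V)
  have hS_apply : ∀ v, S v = ∑ i ∈ Finset.range (p ^ k), ρ (z ^ i) v := by
    intro v
    simp [S, LinearMap.sum_apply]
  let U₁ : Submodule (ZMod q) V :=
    LinearMap.ker (((ρ z : V ≃ₗ[ZMod q] V) : V →ₗ[ZMod q] V) - LinearMap.id)
  let U₂ : Submodule (ZMod q) V := LinearMap.ker S
  have hU1 : ∀ v, v ∈ U₁ ↔ ρ z v = v := by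
    intro v
    simp [U₁, LinearMap.mem_ker, sub_eq_zero]
  have hU2 : ∀ v, v ∈ U₂ ↔ ∑ i ∈ Finset.range (p ^ k), ρ (z ^ i) v = 0 := by
    intro v
    rw [← hS_apply]
    exact LinearMap.mem_ker
  have hρcomm : ∀ (i : ℕ) (g : G) (v : V), ρ (z ^ i) (ρ g v) = ρ g (ρ (z ^ i) v) := by
    intro i g v
    rw [← LinearEquiv.mul_apply, ← LinearEquiv.mul_apply, ← map_mul, ← map_mul, hcomm]
  have hI1 : Inv ρ U₁ := by
    intro g w hw
    rw [hU1] at hw ⊢
    have h1 := hρcomm 1 g w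
    rw [pow_one] at h1
    rw [h1, hw]
  have hI2 : Inv ρ U₂ := by
    intro g w hw
    rw [hU2] at hw ⊢
    have h1 : ∑ i ∈ Finset.range (p ^ k), ρ (z ^ i) (ρ g w)
        = ρ g (∑ i ∈ Finset.range (p ^ k), ρ (z ^ i) w) := by
      rw [map_sum]
      exact Finset.sum_congr rfl (fun i _ => hρcomm i g w)
    rw [h1, hw, map_zero]
  have hfixpow : ∀ (v : V), ρ z v = v → ∀ i : ℕ, ρ (z ^ i) v = v := by
    intro v hv i
    induction i with
    | zero => simp
    | succ i ih => rw [pow_succ, map_mul, LinearEquiv.mul_apply, hv, ih]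
  have hinf : U₁ ⊓ U₂ = ⊥ := by
    rw [eq_bot_iff]
    intro v hv
    rw [Submodule.mem_inf] at hv
    obtain ⟨h1, h2⟩ := hv
    rw [hU1] at h1
    rw [hU2] at h2
    rw [Finset.sum_congr rfl (fun i _ => hfixpow v h1 i), Finset.sum_const,
      Finset.card_range] at h2
    rw [Submodule.mem_bot]
    have h3 : ((p ^ k : ℕ) : ZMod q) • v = 0 := by
      rw [Nat.cast_smul_eq_nsmul]
      exact h2
    exact (smul_eq_zero.1 h3).resolve_left hnq
  have hsub : ∀ v : V, ρ z v - v ∈ U₂ := by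
    intro v
    rw [hU2]
    have h1 : ∀ i ∈ Finset.range (p ^ k),
        ρ (z ^ i) (ρ z v - v) = ρ (z ^ (i + 1)) v - ρ (z ^ i) v := by
      intro i _
      rw [map_sub, pow_succ, map_mul, LinearEquiv.mul_apply]
    rw [Finset.sum_congr rfl h1, Finset.sum_range_sub (fun i => ρ (z ^ i) v) (p ^ k)]
    simp [hk]
  have hU2ne : U₂ ≠ ⊥ := by
    intro h
    apply hz1
    apply hinj
    rw [map_one]
    ext v
    have h1 := hsub v
    rw [h, Submodule.mem_bot, sub_eq_zero] at h1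
    simpa using h1
  obtain ⟨u₂, hu₂, hu₂0⟩ := (Submodule.ne_bot_iff _).1 hU2ne
  have hv₀U : v₀ ∈ U₁ := (hU1 v₀).2 hv₀
  have hst := hS ρ hEq U₁ U₂ hI1 hI2 hinf v₀ hv₀U u₂ hu₂ hv0 hu₂0
  have hzst : z ∈ St ρ u₂ := by
    rw [← hst]
    exact (mem_St ρ v₀ z).2 hv₀
  have h1 : u₂ ∈ U₁ ⊓ U₂ :=
    Submodule.mem_inf.2 ⟨(hU1 u₂).2 ((mem_St ρ u₂ z).1 hzst), hu₂⟩
  rw [hinf, Submodule.mem_bot] at h1
  exact hu₂0 h1

end Cfsg.Agent.Lib.Helper86.Half
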