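import Mathlib
import Cfsg.Prelude
import Cfsg.Agent.Lib.Helper68.Half.Defs

/-!
# HALF project (S3371): package [IMPEXACT]

From the monomial data in the basis `e₀, e₁` to the exact description of the group in
coordinates.
-/

set_option autoImplicit false

universe u v

namespace Cfsg.Agent.Lib.Helper86.Half

open Cfsg.Agent.Lib.Helper68.Half

theorem pkgImpExact : PkgImpExact.{u, v} := by
  intro q _ V _ _ _ G _ _ ρ H e₀ e₁ x₀ hM
  obtain ⟨hidx, hx, hx0, hx1, hA', hB, hC, hspan, hind⟩ := hM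
  let φ : (Fin 2 → ZMod q) →ₗ[ZMod q] V :=
    { toFun := fun c => c 0 • e₀ + c 1 • e₁
      map_add' := by
        intro c d
        simp only [Pi.add_apply, add_smul]
        abel
      map_smul' := by
        intro r c
        simp only [Pi.smul_apply, smul_eq_mul, RingHom.id_apply, smul_add, mul_smul] }
  have hφ_apply : ∀ c, φ c = c 0 • e₀ + c 1 • e₁ := fun c => rfl
  have hφ : Function.Bijective φ := by
    constructor
    · rw [← LinearMap.ker_eq_bot, LinearMap.ker_eq_bot']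
      intro c hc
      rw [hφ_apply] at hc
      obtain ⟨h0, h1⟩ := hind (c 0) (c 1) hc
      funext i
      fin_cases i
      · exact h0
      · exact h1
    · intro v
      obtain ⟨c₀, c₁, hv⟩ := hspan v
      refine ⟨![c₀, c₁], ?_⟩
      rw [hφ_apply, hv]
      simp
  let e : V ≃ₗ[ZMod q] (Fin 2 → ZMod q) := (LinearEquiv.ofBijective φ hφ).symm
  have he_symm : ∀ c, e.symm c = c 0 • e₀ + c 1 • e₁ := by
    intro c
    rw [← hφ_apply]
    simp [e]
  have he : ∀ c₀ c₁ : ZMod q, e (c₀ • e₀ + c₁ • e₁) = ![c₀, c₁] := by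
    intro c₀ c₁
    apply e.symm.injective
    rw [e.symm_apply_apply, he_symm]
    simp
  have hD : ∀ (g : G) (a b : ZMod q), ρ g e₀ = a • e₀ → ρ g e₁ = b • e₁ →
      ∀ v, (e.symm.trans ((ρ g).trans e)) v = ![a * v 0, b * v 1] := by
    intro g a b h0 h1 v
    rw [LinearEquiv.trans_apply, LinearEquiv.trans_apply, he_symm, map_add, map_smul, map_smul,
      h0, h1, smul_smul, smul_smul, he, mul_comm (v 0), mul_comm (v 1)]
  have hA : ∀ (g : G) (a b : ZMod q), ρ g e₀ = a • e₁ → ρ g e₁ = b • e₀ →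
      ∀ v, (e.symm.trans ((ρ g).trans e)) v = ![b * v 1, a * v 0] := by
    intro g a b h0 h1 v
    rw [LinearEquiv.trans_apply, LinearEquiv.trans_apply, he_symm, map_add, map_smul, map_smul,
      h0, h1, smul_smul, smul_smul, add_comm, he, mul_comm (v 0), mul_comm (v 1)]
  have hC' : ∀ h ∈ H, ∃ a s : ZMod q, a ≠ 0 ∧ (s = 1 ∨ s = -1) ∧ ρ h e₀ = a • e₀ ∧
      ρ h e₁ = (s * a⁻¹) • e₁ := by
    intro h hh
    obtain ⟨a, ha, h0, h1 | h1⟩ := hC h hh
    · exact ⟨a, 1, ha, Or.inl rfl, h0, by rw [one_mul]; exact h1⟩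
    · exact ⟨a, -1, ha, Or.inr rfl, h0, by rw [neg_one_mul, neg_smul]; exact h1⟩
  have hG : ∀ a : ZMod q, a ≠ 0 → ∀ s : ZMod q, (s = 1 ∨ s = -1) →
      ∃ g : G, ρ g e₀ = a • e₀ ∧ ρ g e₁ = (s * a⁻¹) • e₁ := by
    intro a ha s hs
    obtain ⟨h, -, h0, h1⟩ := hA' a ha
    rcases hs with rfl | rfl
    · exact ⟨h, h0, by rw [one_mul]; exact h1⟩
    · obtain ⟨h₀, -, k0, k1⟩ := hB
      refine ⟨h * h₀, ?_, ?_⟩
      · rw [map_mul, LinearEquiv.mul_apply, k0, h0]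
      · rw [map_mul, LinearEquiv.mul_apply, k1, map_neg, h1, neg_one_mul, neg_smul]
  refine ⟨e, fun f => ⟨?_, ?_⟩⟩
  · rintro ⟨g, rfl⟩
    by_cases hg : g ∈ H
    · obtain ⟨a, s, ha, hs, h0, h1⟩ := hC' g hg
      exact ⟨a, s, ha, hs, Or.inl (hD g a (s * a⁻¹) h0 h1)⟩
    · have hh : x₀⁻¹ * g ∈ H := by
        rw [Subgroup.mul_mem_iff_of_index_two hidx, inv_mem_iff]
        exact iff_of_false hx hg
      obtain ⟨a, s, ha, hs, h0, h1⟩ := hC' _ hh
      have h2 : ρ g = ρ x₀ * ρ (x₀⁻¹ * g) := by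
        rw [← map_mul, mul_inv_cancel_left]
      have hg0 : ρ g e₀ = a • e₁ := by
        rw [h2, LinearEquiv.mul_apply, h0, map_smul, hx0]
      have hg1 : ρ g e₁ = (s * a⁻¹) • e₀ := by
        rw [h2, LinearEquiv.mul_apply, h1, map_smul, hx1]
      exact ⟨a, s, ha, hs, Or.inr (hA g a (s * a⁻¹) hg0 hg1)⟩
  · rintro ⟨a, s, ha, hs, hf | hf⟩
    · obtain ⟨g, h0, h1⟩ := hG a ha s hs
      exact ⟨g, LinearEquiv.ext fun v => by rw [hf v, hD g a (s * a⁻¹) h0 h1 v]⟩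
    · obtain ⟨g, h0, h1⟩ := hG a ha s hs
      refine ⟨x₀ * g, LinearEquiv.ext fun v => ?_⟩
      have hg0 : ρ (x₀ * g) e₀ = a • e₁ := by
        rw [map_mul, LinearEquiv.mul_apply, h0, map_smul, hx0]
      have hg1 : ρ (x₀ * g) e₁ = (s * a⁻¹) • e₀ := by
        rw [map_mul, LinearEquiv.mul_apply, h1, map_smul, hx1]
      rw [hf v, hA (x₀ * g) a (s * a⁻¹) hg0 hg1 v]

end Cfsg.Agent.Lib.Helper86.Half
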